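import Mathlib
import Cfsg.Agent.Lib.ZassSL25.Lift

/-!
# Complex representations from representations of odd order groups over two elements

A faithful representation lifts; if its commutant contains `W` with `W² + W + 1 = 0`
the lift splits into two halves of equal dimension.
-/

set_option autoImplicit false
set_option linter.unusedSectionVars false

namespace Cfsg.Agent.Lib.OddLinear

open Matrix

universe u

/-- A finite subset of a field of characteristic zero is seen faithfully in the complex numbers. -/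
theorem exists_subalgebra_hom {L : Type} [Field L] [CharZero L] (E : Set L) (hE : E.Finite) :
    ∃ (A : Subalgebra ℚ L) (φ : A →+* ℂ), E ⊆ (A : Set L) ∧
      ∀ x : A, (x : L) ∈ E → φ x = 0 → (x : L) = 0 := by
  let F : Set L := E ∪ (·⁻¹) '' E
  let A := Algebra.adjoin ℚ F
  haveI : Algebra.FiniteType ℚ A :=
    (Subalgebra.fg_iff_finiteType A).1 (Subalgebra.fg_def.2 ⟨F, hE.union (hE.image _), rfl⟩)
  obtain ⟨φ⟩ := ZassSL25.exists_ringHom_complex A
  refine ⟨A, φ, fun x hx => Algebra.subset_adjoin (Or.inl hx), fun x hx hx0 => ?_⟩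
  by_contra hne
  have hy : ((x : L))⁻¹ ∈ A := Algebra.subset_adjoin (Or.inr ⟨x, hx, rfl⟩)
  have h1 : x * ⟨_, hy⟩ = 1 := Subtype.ext (mul_inv_cancel₀ hne)
  have := congrArg φ h1
  rw [map_mul, hx0, zero_mul, map_one] at this
  exact zero_ne_one this

theorem no_sqrt_neg_three (x : ℚ_[2]) : x * x ≠ -3 := by
  intro h
  have hn : ‖x‖ ≤ 1 := by
    have h3 : ‖(-3 : ℚ_[2])‖ ≤ 1 := by
      have := PadicInt.norm_le_one (-3 : ℤ_[2])
      rwa [PadicInt.norm_def, PadicInt.coe_neg] at this
    rw [← h, norm_mul] at h3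
    nlinarith [norm_nonneg x]
  let y : ℤ_[2] := ⟨x, hn⟩
  have hy : y * y = -3 := by
    apply Subtype.ext
    show x * x = ((-3 : ℤ_[2]) : ℚ_[2])
    rw [h, PadicInt.coe_neg]
    rfl
  have := congrArg (PadicInt.toZModPow (p := 2) 3) hy
  rw [map_mul, map_neg, map_ofNat] at this
  revert this
  generalize PadicInt.toZModPow (p := 2) 3 y = z
  revert z
  decide

theorem zmod_two_aux : ∀ a b : ZMod 2, a - (-a - b) = b := by decide

variable {G : Type u} [Group G] [Finite G] {n : ℕ}

theorem not_two_dvd_card (hodd : Odd (Nat.card G)) [Fintype G] : ¬ 2 ∣ Fintype.card G := by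
  rw [← Nat.card_eq_fintype_card, ← even_iff_two_dvd]
  exact Nat.not_even_iff_odd.2 hodd

theorem lift_injective (ρ : G →* Matrix (Fin n) (Fin n) (ZMod 2)) (hρ : Function.Injective ρ)
    (R : G →* Matrix (Fin n) (Fin n) ℤ_[2]) (hR : ∀ g, (R g).map PadicInt.toZMod = ρ g) {g : G}
    (h : ∀ i j, ((R g i j : ℤ_[2]) : ℚ_[2]) = if i = j then 1 else 0) : g = 1 := by
  refine hρ ?_
  rw [map_one, ← hR g]
  ext i j
  have e : R g i j = (1 : Matrix (Fin n) (Fin n) ℤ_[2]) i j := by
    apply Subtype.ext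
    rw [h, Matrix.one_apply]
    split_ifs <;> rfl
  rw [Matrix.map_apply, e, Matrix.one_apply, Matrix.one_apply]
  split_ifs <;> simp

/-- The transport of a lift to the complex numbers. -/
theorem exists_transport (R : G →* Matrix (Fin n) (Fin n) ℤ_[2]) (E : Set ℚ_[2]) (hE : E.Finite) :
    ∃ (A : Subalgebra ℚ ℚ_[2]) (φ : A →+* ℂ) (σ : G →* Matrix (Fin n) (Fin n) ℂ)
      (R' : G →* Matrix (Fin n) (Fin n) A),
      E ⊆ (A : Set ℚ_[2]) ∧ (∀ x : A, (x : ℚ_[2]) ∈ E → φ x = 0 → (x : ℚ_[2]) = 0) ∧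
      (∀ g i j, ((R' g i j : A) : ℚ_[2]) = (R g i j : ℚ_[2])) ∧ (∀ g, σ g = φ.mapMatrix (R' g)) ∧
      (∀ g, σ g = 1 → ∀ i j, ((R g i j : ℤ_[2]) : ℚ_[2]) = if i = j then 1 else 0) := by
  classical
  let E0 : Set ℚ_[2] := E ∪ (Set.range fun x : G × Fin n × Fin n => ((R x.1 x.2.1 x.2.2 : ℤ_[2]) : ℚ_[2])) ∪
    (Set.range fun x : G × Fin n × Fin n =>
      ((R x.1 x.2.1 x.2.2 : ℤ_[2]) : ℚ_[2]) - if x.2.1 = x.2.2 then 1 else 0)
  obtain ⟨A, φ, hA, hφ⟩ := exists_subalgebra_hom E0
    ((hE.union (Set.finite_range _)).union (Set.finite_range _))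
  let R' : G →* Matrix (Fin n) (Fin n) A :=
    { toFun := fun g => Matrix.of fun i j => ⟨_, hA (Or.inl (Or.inr ⟨(g, i, j), rfl⟩))⟩
      map_one' := by
        ext i j
        simp only [Matrix.of_apply, map_one]
        rcases eq_or_ne i j with rfl | hij
        · simp
        · simp [Matrix.one_apply_ne hij]
      map_mul' := fun a b => by
        ext i j
        simp [Matrix.mul_apply, map_mul] }
  refine ⟨A, φ, φ.mapMatrix.toMonoidHom.comp R', R', fun x hx => hA (Or.inl (Or.inl hx)),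
    fun x hx => hφ x (Or.inl (Or.inl hx)), fun g i j => rfl, fun g => rfl, fun g hg i j => ?_⟩
  have hd := hA (Or.inr ⟨(g, i, j), rfl⟩)
  have h1 : φ (R' g i j) = if i = j then 1 else 0 := by
    have := congrFun (congrFun hg i) j
    rwa [Matrix.one_apply] at this
  have h0 : φ ⟨_, hd⟩ = 0 := by
    have e : (⟨_, hd⟩ : A) = R' g i j - if i = j then 1 else 0 := by
      apply Subtype.ext
      split_ifs with hij
      · simp [R', hij]
      · simp [R', hij]
    rw [e, map_sub, h1]
    split_ifs <;> simp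
  exact sub_eq_zero.1 (hφ _ (Or.inr ⟨(g, i, j), rfl⟩) h0)

/-- A faithful representation over two elements lifts. -/
theorem exists_complex (hodd : Odd (Nat.card G)) (ρ : G →* Matrix (Fin n) (Fin n) (ZMod 2))
    (hρ : Function.Injective ρ) :
    ∃ σ : Representation ℂ G (Fin n → ℂ), Function.Injective σ := by
  classical
  haveI := Fintype.ofFinite G
  haveI : Fact (Nat.Prime 2) := ⟨Nat.prime_two⟩
  obtain ⟨R, hR⟩ := ZassSL25.exists_padic_lift (not_two_dvd_card hodd) ρ
  obtain ⟨A, φ, σ, R', -, -, -, -, hσ⟩ := exists_transport R ∅ Set.finite_empty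
  refine ⟨(Matrix.toLinAlgEquiv' : Matrix (Fin n) (Fin n) ℂ ≃ₐ[ℂ] _).toMonoidHom.comp σ, ?_⟩
  intro a b hab
  have hab' : σ a = σ b := Matrix.toLinAlgEquiv'.injective hab
  have : σ (a * b⁻¹) = 1 := by rw [map_mul, hab', ← map_mul, mul_inv_cancel, map_one]
  exact mul_inv_eq_one.1 (lift_injective ρ hρ R hR (hσ _ this))

/-- With `W² + W + 1 = 0` in the commutant the lift splits into two halves. -/
theorem exists_two_halves (hodd : Odd (Nat.card G)) (ρ : G →* Matrix (Fin n) (Fin n) (ZMod 2))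
    (hρ : Function.Injective ρ) {W : Matrix (Fin n) (Fin n) (ZMod 2)}
    (hW : ∀ g, ρ g * W = W * ρ g) (hW2 : W * W + W + 1 = 0) :
    ∃ m : ℕ, 2 * m = n ∧ ∃ σ₁ σ₂ : Representation ℂ G (Fin m → ℂ),
      ∀ g, σ₁ g = 1 → σ₂ g = 1 → g = 1 := by
  classical
  haveI := Fintype.ofFinite G
  haveI : Fact (Nat.Prime 2) := ⟨Nat.prime_two⟩
  have hW3 : W ^ 3 = 1 := by
    have : (W - 1) * (W * W + W + 1) = W ^ 3 - 1 := by noncomm_ring
    rw [hW2, mul_zero, eq_comm, sub_eq_zero] at this
    exact this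
  let C3 := Multiplicative (ZMod 3)
  let w : C3 →* Matrix (Fin n) (Fin n) (ZMod 2) :=
    { toFun := fun c => W ^ (Multiplicative.toAdd c).val
      map_one' := by simp
      map_mul' := fun a b => by
        rw [toAdd_mul, ZMod.val_add, ← pow_add]
        exact (pow_eq_pow_mod _ hW3).symm }
  let ρ' : G × C3 →* Matrix (Fin n) (Fin n) (ZMod 2) :=
    ρ.noncommCoprod w fun g c => (Commute.pow_right (hW g) _)
  have hcop : ¬ 2 ∣ Fintype.card (G × C3) := by
    rw [Fintype.card_prod, show Fintype.card C3 = 3 from rfl, Nat.Prime.dvd_mul Nat.prime_two]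
    rintro (h | h)
    · exact not_two_dvd_card hodd h
    · omega
  obtain ⟨R, hR⟩ := ZassSL25.exists_padic_lift hcop ρ'
  set c : C3 := Multiplicative.ofAdd 1
  set T : Matrix (Fin n) (Fin n) ℤ_[2] := R (1, c) with hTdef
  have hTW : T.map PadicInt.toZMod = W := by
    rw [hTdef, hR]
    show ρ 1 * W ^ (1 : ZMod 3).val = W
    rw [map_one, one_mul]
    exact pow_one W
  have hT3 : T ^ 3 = 1 := by
    rw [hTdef, ← map_pow, show ((1 : G), c) ^ 3 = 1 from Prod.ext (one_pow 3) (pow_card_eq_one (G := C3) (x := c)), map_one]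
  have hT : T * T + T + 1 = 0 := by
    have h0 : (T - 1) * (T * T + T + 1) = 0 := by
      rw [show (T - 1) * (T * T + T + 1) = T ^ 3 - 1 by noncomm_ring, hT3, sub_self]
    have hdet : IsUnit (T - 1).det := by
      refine ZassSL25.isUnit_of_toZMod_ne_zero ?_
      rw [RingHom.map_det, map_sub, map_one, RingHom.mapMatrix_apply, hTW]
      intro hd
      have : (W - 1) * (W * (-1)) = 1 := by
        have e : (W - 1) * (W * (-1)) = W - W * W := by noncomm_ring
        rw [e]
        have h2 : W * W = -W - 1 := by linear_combination (norm := abel) hW2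
        rw [h2]
        ext i j
        simp only [Matrix.sub_apply, Matrix.neg_apply]
        generalize W i j = a
        generalize (1 : Matrix (Fin n) (Fin n) (ZMod 2)) i j = b
        exact zmod_two_aux a b
      have := congrArg Matrix.det this
      rw [Matrix.det_mul, hd, zero_mul, Matrix.det_one] at this
      exact zero_ne_one this
    have := congrArg ((T - 1)⁻¹ * ·) h0
    simpa [Matrix.nonsing_inv_mul_cancel_left _ _ hdet] using this
  -- transport
  set t : ℚ_[2] := ((2 * T.trace + (n : ℤ_[2]) : ℤ_[2]) : ℚ_[2]) with ht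
  let E : Set ℚ_[2] := Set.range fun j : Fin (2 * n + 1) => t * t + 3 * (((j : ℕ) : ℚ_[2]) - n) ^ 2
  obtain ⟨A, φ, σ, R', hEA, hφE, hR', hσ, hσ1⟩ := exists_transport R E (Set.finite_range _)
  set U : Matrix (Fin n) (Fin n) A := R' (1, c) with hU
  set S : Matrix (Fin n) (Fin n) ℂ := 2 * σ (1, c) + 1 with hS
  have hinjmap : Function.Injective (fun X : Matrix (Fin n) (Fin n) A => X.map (fun a : A => (a : ℚ_[2]))) :=
    fun X Y h => by
      ext i j
      exact congrFun (congrFun h i) j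
  have hUc : U.map (fun a : A => (a : ℚ_[2])) = T.map (fun a : ℤ_[2] => (a : ℚ_[2])) := by
    ext i j
    exact hR' _ i j
  have hU0 : U * U + U + 1 = 0 := by
    apply hinjmap
    show (A.val.toRingHom).mapMatrix (U * U + U + 1) = (A.val.toRingHom).mapMatrix 0
    rw [map_add, map_add, map_mul, map_one, map_zero]
    show U.map (fun a : A => (a : ℚ_[2])) * U.map (fun a : A => (a : ℚ_[2])) +
      U.map (fun a : A => (a : ℚ_[2])) + 1 = 0
    rw [hUc]
    show PadicInt.Coe.ringHom.mapMatrix T * PadicInt.Coe.ringHom.mapMatrix T +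
      PadicInt.Coe.ringHom.mapMatrix T + 1 = 0
    rw [← map_mul, ← map_add, ← map_one PadicInt.Coe.ringHom.mapMatrix, ← map_add, hT, map_zero]
  have hS2 : S * S = (-3 : ℂ) • 1 := by
    have h := congrArg φ.mapMatrix hU0
    rw [map_add, map_add, map_mul, map_one, map_zero, ← hσ] at h
    have : S * S + (3 : Matrix (Fin n) (Fin n) ℂ) = 0 := by
      rw [hS, show ((2 : Matrix (Fin n) (Fin n) ℂ) * σ (1, c) + 1) * (2 * σ (1, c) + 1) + 3 =
        4 * (σ (1, c) * σ (1, c) + σ (1, c) + 1) by noncomm_ring; norm_num, h, mul_zero]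
    rw [eq_neg_of_add_eq_zero_left this, neg_smul, show (3 : ℂ) • (1 : Matrix (Fin n) (Fin n) ℂ) =
      3 from by rw [← Algebra.algebraMap_eq_smul_one, map_ofNat]]
  obtain ⟨s, hs⟩ := IsAlgClosed.exists_pow_nat_eq (-3 : ℂ) (n := 2) two_pos
  have hs0 : s ≠ 0 := fun h => by
    rw [h] at hs
    norm_num at hs
  have hcomm : ∀ g : G, Commute (σ (g, 1)) S := fun g => by
    rw [hS]
    refine Commute.add_right (Commute.mul_right (Nat.cast_commute (2 : ℕ) _).symm ?_) (Commute.one_right _)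
    show σ (g, 1) * σ (1, c) = σ (1, c) * σ (g, 1)
    rw [← map_mul, ← map_mul]
    simp
  let Sl : Module.End ℂ (Fin n → ℂ) := Matrix.toLinAlgEquiv' S
  let P : Module.End ℂ (Fin n → ℂ) := (2⁻¹ : ℂ) • 1 + ((2 * s)⁻¹ : ℂ) • Sl
  have hSl : Sl * Sl = (-3 : ℂ) • 1 := by
    show Matrix.toLinAlgEquiv' S * Matrix.toLinAlgEquiv' S = _
    rw [← map_mul, hS2, map_smul, map_one]
  have hP : IsIdempotentElem P := by
    show P * P = P
    have e : P * P = ((2⁻¹ : ℂ) * 2⁻¹ + (2 * s)⁻¹ * (2 * s)⁻¹ * (-3)) • 1 +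
        (2 * (2⁻¹ * (2 * s)⁻¹) : ℂ) • Sl := by
      show ((2⁻¹ : ℂ) • 1 + ((2 * s)⁻¹ : ℂ) • Sl) * ((2⁻¹ : ℂ) • 1 + ((2 * s)⁻¹ : ℂ) • Sl) = _
      simp only [add_mul, mul_add, smul_mul_assoc, mul_smul_comm, one_mul, mul_one, hSl, smul_smul]
      module
    rw [e, ← hs]
    congr 2 <;> field_simp <;> ring
  have htrS : LinearMap.trace ℂ (Fin n → ℂ) Sl = 2 * (σ (1, c)).trace + n := by
    show LinearMap.trace ℂ (Fin n → ℂ) (Matrix.toLin' S) = _
    rw [Matrix.trace_toLin'_eq, hS, Matrix.trace_add, Matrix.trace_one, Fintype.card_fin, two_mul,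
      Matrix.trace_add, two_mul]
  set k := Module.finrank ℂ (LinearMap.range P)
  have hproj : LinearMap.IsProj (LinearMap.range P) P :=
    (LinearMap.isProj_range_iff_isIdempotentElem P).2 hP
  have htrP : LinearMap.trace ℂ _ P = (k : ℂ) := LinearMap.IsProj.trace hproj
  have hkn : k ≤ n := by
    have := Submodule.finrank_le (LinearMap.range P)
    rwa [Module.finrank_fin_fun] at this
  have hk : 2 * k = n := by
    by_contra hne
    have hj : k * 2 < 2 * n + 1 := by omega
    set e : ℚ_[2] := t * t + 3 * (((k * 2 : ℕ) : ℚ_[2]) - n) ^ 2 with he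
    have heE : e ∈ E := ⟨⟨k * 2, hj⟩, rfl⟩
    let t' : A := 2 * U.trace + (n : A)
    have ht' : (t' : ℚ_[2]) = t := by
      rw [ht]
      show A.val (2 * U.trace + (n : A)) = PadicInt.Coe.ringHom (2 * T.trace + (n : ℤ_[2]))
      rw [map_add, map_add, map_mul, map_mul, map_ofNat, map_ofNat, map_natCast, map_natCast]
      congr 2
      rw [Matrix.trace, Matrix.trace, map_sum, map_sum]
      exact Finset.sum_congr rfl fun i _ => congrFun (congrFun hUc i) i
    let e' : A := t' * t' + 3 * (((k * 2 : ℕ) : A) - (n : A)) ^ 2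
    have he' : (e' : ℚ_[2]) = e := by
      show A.val e' = e
      simp only [e', he, map_add, map_mul, map_pow, map_sub, map_ofNat, map_natCast]
      rw [show A.val t' = t from ht']
    have h1 : φ t' = ((2 : ℂ) * k - n) * s := by
      have h3 : LinearMap.trace ℂ (Fin n → ℂ) P =
          2⁻¹ * (n : ℂ) + (2 * s)⁻¹ * (2 * (σ (1, c)).trace + n) := by
        show LinearMap.trace ℂ (Fin n → ℂ) ((2⁻¹ : ℂ) • 1 + ((2 * s)⁻¹ : ℂ) • Sl) = _
        rw [map_add, map_smul, map_smul, LinearMap.trace_one, htrS, Module.finrank_fin_fun,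
          smul_eq_mul, smul_eq_mul]
      have h4 : φ t' = 2 * (σ (1, c)).trace + n := by
        show φ (2 * U.trace + (n : A)) = _
        rw [map_add, map_mul, map_ofNat, map_natCast, hσ]
        congr 2
        exact map_sum φ _ _
      rw [htrP] at h3
      rw [h4, h3]
      field_simp
      ring
    have h2 : φ e' = 0 := by
      show φ (t' * t' + 3 * (((k * 2 : ℕ) : A) - (n : A)) ^ 2) = 0
      simp only [map_add, map_mul, map_pow, map_sub, map_ofNat, map_natCast, h1]
      push_cast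
      linear_combination ((2 : ℂ) * k - n) ^ 2 * hs
    have h3 := hφE e' (he' ▸ heE) h2
    rw [he', he] at h3
    have hd : (((k * 2 : ℕ) : ℚ_[2]) - n) ≠ 0 := sub_ne_zero.2 fun h => hne (by
      have : k * 2 = n := by exact_mod_cast h
      omega)
    refine no_sqrt_neg_three (t / (((k * 2 : ℕ) : ℚ_[2]) - n)) ?_
    field_simp
    linear_combination h3
  -- the two halves
  have hPc : ∀ g : G, Commute (Matrix.toLinAlgEquiv' (σ (g, 1))) P := fun g => by
    refine Commute.add_right ((Commute.one_right _).smul_right _) (Commute.smul_right ?_ _)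
    exact (hcomm g).map Matrix.toLinAlgEquiv'
  have hrg : Module.finrank ℂ (LinearMap.ker P) = k := by
    have := LinearMap.finrank_range_add_finrank_ker P
    rw [Module.finrank_fin_fun] at this
    omega
  let sub : ∀ (X : Submodule ℂ (Fin n → ℂ)), Module.finrank ℂ X = k →
      (∀ g : G, ∀ v ∈ X, Matrix.toLinAlgEquiv' (σ (g, 1)) v ∈ X) →
      Representation ℂ G (Fin k → ℂ) := fun X hX hinv =>
    let b : X ≃ₗ[ℂ] (Fin k → ℂ) := LinearEquiv.ofFinrankEq _ _ (by rw [hX, Module.finrank_fin_fun])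
    { toFun := fun g => b.conj ((Matrix.toLinAlgEquiv' (σ (g, 1))).restrict (hinv g))
      map_one' := by
        have e : (Matrix.toLinAlgEquiv' (σ (1, 1))).restrict (hinv 1) = LinearMap.id := by
          refine LinearMap.ext fun v => Subtype.ext ?_
          show Matrix.toLinAlgEquiv' (σ 1) (v : Fin n → ℂ) = v
          rw [map_one, map_one]
          rfl
        rw [e]
        exact b.conj_id
      map_mul' := fun g h => by
        have e : (Matrix.toLinAlgEquiv' (σ (g * h, 1))).restrict (hinv (g * h)) =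
            (Matrix.toLinAlgEquiv' (σ (g, 1))).restrict (hinv g) ∘ₗ
              (Matrix.toLinAlgEquiv' (σ (h, 1))).restrict (hinv h) := by
          refine LinearMap.ext fun v => Subtype.ext ?_
          show Matrix.toLinAlgEquiv' (σ (g * h, 1)) (v : Fin n → ℂ) =
            Matrix.toLinAlgEquiv' (σ (g, 1)) (Matrix.toLinAlgEquiv' (σ (h, 1)) (v : Fin n → ℂ))
          rw [show (g * h, (1 : C3)) = (g, 1) * (h, 1) by simp, map_mul, map_mul]
          rfl
        rw [e, LinearEquiv.conj_comp]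
        rfl }
  have hi1 : ∀ g : G, ∀ v ∈ LinearMap.range P, Matrix.toLinAlgEquiv' (σ (g, 1)) v ∈ LinearMap.range P := by
    rintro g _ ⟨v, rfl⟩
    exact ⟨Matrix.toLinAlgEquiv' (σ (g, 1)) v, (LinearMap.congr_fun (hPc g).eq v).symm⟩
  have hi2 : ∀ g : G, ∀ v ∈ LinearMap.ker P, Matrix.toLinAlgEquiv' (σ (g, 1)) v ∈ LinearMap.ker P := by
    intro g v hv
    rw [LinearMap.mem_ker] at hv ⊢
    rw [show P (Matrix.toLinAlgEquiv' (σ (g, 1)) v) = Matrix.toLinAlgEquiv' (σ (g, 1)) (P v) from
      (LinearMap.congr_fun (hPc g).eq v).symm, hv, map_zero]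
  refine ⟨k, hk, sub _ rfl hi1, sub _ hrg hi2, fun g h1 h2 => ?_⟩
  have key : ∀ (X : Submodule ℂ (Fin n → ℂ)) (hX : Module.finrank ℂ X = k) (hinv), sub X hX hinv g = 1 →
      ∀ v ∈ X, Matrix.toLinAlgEquiv' (σ (g, 1)) v = v := by
    intro X hX hinv h v hv
    let b : X ≃ₗ[ℂ] (Fin k → ℂ) := LinearEquiv.ofFinrankEq _ _ (by rw [hX, Module.finrank_fin_fun])
    have := LinearMap.congr_fun h (b ⟨v, hv⟩)
    change b ((Matrix.toLinAlgEquiv' (σ (g, 1))).restrict (hinv g) (b.symm (b ⟨v, hv⟩))) = b ⟨v, hv⟩ at this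
    rw [b.symm_apply_apply] at this
    exact congrArg Subtype.val (b.injective this)
  have hone : σ (g, 1) = 1 := by
    apply (Matrix.toLinAlgEquiv' (R := ℂ) (n := Fin n)).injective
    rw [map_one]
    refine LinearMap.ext fun v => ?_
    have hdec : v = P v + (v - P v) := by rw [add_sub_cancel]
    conv_lhs => rw [hdec]
    rw [map_add, key _ rfl hi1 h1 _ ⟨v, rfl⟩, key _ hrg hi2 h2 _ (by
      rw [LinearMap.mem_ker, map_sub, ← Module.End.mul_apply, hP.eq, sub_self]), ← hdec]
    rfl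
  have hg := hσ1 _ hone
  refine hρ ?_
  rw [map_one]
  have hg' : ρ' (g, 1) = 1 := by
    rw [← hR]
    ext i j
    have e : R (g, 1) i j = (1 : Matrix (Fin n) (Fin n) ℤ_[2]) i j := by
      apply Subtype.ext
      rw [hg, Matrix.one_apply]
      split_ifs <;> rfl
    rw [Matrix.map_apply, e, Matrix.one_apply, Matrix.one_apply]
    split_ifs <;> simp
  simpa [ρ'] using hg'

end Cfsg.Agent.Lib.OddLinear
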