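import Mathlib
import Cfsg.Agent.Lib.Elusive.SympStep

/-!
# The commutant of an irreducible group of odd order in even dimension over two elements

It contains an element `W` with `W² + W + 1 = 0`.
-/

set_option autoImplicit false
set_option linter.unusedSectionVars false

namespace Cfsg.Agent.Lib.OddLinear

open Matrix

universe u

variable {G : Type u} [Group G] [Finite G] {n : ℕ}
  (ρ : G →* Matrix (Fin n) (Fin n) (ZMod 2))

/-- The commutant. -/
def commutant : Subalgebra (ZMod 2) (Matrix (Fin n) (Fin n) (ZMod 2)) :=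
  Subalgebra.centralizer (ZMod 2) (Set.range ρ)

theorem mem_commutant {X : Matrix (Fin n) (Fin n) (ZMod 2)} :
    X ∈ commutant ρ ↔ ∀ g, ρ g * X = X * ρ g := by
  simp [commutant, Subalgebra.mem_centralizer_iff]

theorem even_finrank_commutant (hodd : Odd (Nat.card G)) (hn : Even n) :
    Even (Module.finrank (ZMod 2) (commutant ρ)) := by
  classical
  haveI := Fintype.ofFinite G
  let M := Matrix (Fin n) (Fin n) (ZMod 2)
  let π : M →ₗ[ZMod 2] M :=
    ∑ g : G, (LinearMap.mulLeft (ZMod 2) (ρ g)).comp (LinearMap.mulRight (ZMod 2) (ρ g⁻¹))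
  have hπ : ∀ X, π X = ∑ g : G, ρ g * X * ρ g⁻¹ := fun X => by
    simp [π, LinearMap.sum_apply, mul_assoc]
  have hone : (Fintype.card G : ZMod 2) = 1 := by
    rw [← Nat.card_eq_fintype_card, ZMod.natCast_eq_one_iff_odd]
    exact hodd
  have hinv : ∀ g, ρ g⁻¹ * ρ g = 1 := fun g => by rw [← map_mul, inv_mul_cancel, map_one]
  have hfix : ∀ X, π X ∈ commutant ρ := fun X => by
    rw [mem_commutant]
    intro a
    rw [hπ, Finset.mul_sum, Finset.sum_mul]
    refine Fintype.sum_equiv (Equiv.mulLeft a) _ _ fun g => ?_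
    show ρ a * (ρ g * X * ρ g⁻¹) = ρ (a * g) * X * ρ (a * g)⁻¹ * ρ a
    rw [_root_.mul_inv_rev, map_mul, map_mul, mul_assoc _ (ρ g⁻¹ * ρ a⁻¹), mul_assoc (ρ g⁻¹), hinv, mul_one]
    simp only [mul_assoc]
  have hid : ∀ X ∈ commutant ρ, π X = X := fun X hX => by
    rw [mem_commutant] at hX
    rw [hπ, Finset.sum_congr rfl (g := fun _ => X) fun g _ => by
      rw [hX, mul_assoc, ← map_mul, mul_inv_cancel, map_one, mul_one], Finset.sum_const,
      Finset.card_univ, ← Nat.cast_smul_eq_nsmul (ZMod 2), hone, one_smul]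
  have htr : ∀ X, (π X).trace = X.trace := fun X => by
    rw [hπ, Matrix.trace_sum, Finset.sum_congr rfl (g := fun _ => X.trace) fun g _ => by
      rw [Matrix.trace_mul_comm (ρ g * X), ← mul_assoc, hinv, one_mul], Finset.sum_const,
      Finset.card_univ, ← Nat.cast_smul_eq_nsmul (ZMod 2), hone, one_smul]
  have hadj : ∀ X Y, (X * π Y).trace = (π X * Y).trace := fun X Y => by
    rw [hπ, hπ, Finset.mul_sum, Finset.sum_mul, Matrix.trace_sum, Matrix.trace_sum]
    refine Fintype.sum_equiv (Equiv.inv G) _ _ fun g => ?_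
    show (X * (ρ g * Y * ρ g⁻¹)).trace = (ρ g⁻¹ * X * ρ g⁻¹⁻¹ * Y).trace
    rw [inv_inv, ← mul_assoc, ← mul_assoc, Matrix.trace_mul_comm (X * ρ g * Y)]
    simp only [mul_assoc]
  have hrange : LinearMap.range π = Subalgebra.toSubmodule (commutant ρ) := by
    apply le_antisymm
    · rintro _ ⟨X, rfl⟩
      exact hfix X
    · intro X hX
      exact ⟨X, hid X hX⟩
  let K := LinearMap.ker π
  let B : LinearMap.BilinForm (ZMod 2) K :=
    LinearMap.mk₂ (ZMod 2) (fun X Y => ((X : M) * (Y : M)).trace)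
      (fun a b c => by rw [Submodule.coe_add, add_mul]; exact Matrix.trace_add _ _)
      (fun r a b => by simp [M, Matrix.trace_smul])
      (fun a b c => by rw [Submodule.coe_add, mul_add]; exact Matrix.trace_add _ _)
      (fun r a b => by simp [M, Matrix.trace_smul])
  have hB : ∀ X Y : K, B X Y = ((X : M) * (Y : M)).trace := fun X Y => rfl
  have halt : B.IsAlt := fun X => by
    have h0 : (X : M).trace = 0 := by
      rw [← htr, LinearMap.mem_ker.1 X.2, Matrix.trace_zero]
    rw [hB, ← sq, show ((X : M) ^ 2).trace = (X : M).trace ^ 2 from ZMod.trace_pow_card _, h0,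
      zero_pow two_ne_zero]
  have hnd : Elusive.SympStep.Nd B ⊤ := by
    intro X _ hX
    apply Subtype.ext
    show (X : M) = 0
    rw [Matrix.ext_iff_trace_mul_right]
    intro Y
    rw [zero_mul, Matrix.trace_zero]
    have hmem : Y - π Y ∈ K := by
      rw [LinearMap.mem_ker, map_sub, hid _ (hfix Y), sub_self]
    have h1 : ((X : M) * (Y - π Y)).trace = 0 := hX ⟨_, hmem⟩ trivial
    rwa [mul_sub, Matrix.trace_sub, hadj, LinearMap.mem_ker.1 X.2, zero_mul, Matrix.trace_zero,
      sub_zero] at h1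
  have hK : Even (Module.finrank (ZMod 2) K) := by
    have := Elusive.SympStep.nd_even halt hnd
    rwa [finrank_top] at this
  have h := LinearMap.finrank_range_add_finrank_ker π
  rw [hrange, Module.finrank_matrix, Module.finrank_self, mul_one, Fintype.card_fin] at h
  have he : Even (n * n) := hn.mul_right _
  rw [← h] at he
  exact (Nat.even_add.1 he).2 hK

/-- In even dimension an irreducible group of odd order commutes with some `W` with
`W² + W + 1 = 0`. -/
theorem exists_omega (hodd : Odd (Nat.card G)) (hn : Even n) (hn0 : n ≠ 0)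
    (hirr : ∀ U : Submodule (ZMod 2) (Fin n → ZMod 2), (∀ g, ∀ u ∈ U, ρ g *ᵥ u ∈ U) →
      U = ⊥ ∨ U = ⊤) :
    ∃ W : Matrix (Fin n) (Fin n) (ZMod 2), (∀ g, ρ g * W = W * ρ g) ∧ W * W + W + 1 = 0 := by
  classical
  haveI : Nonempty (Fin n) := ⟨⟨0, Nat.pos_of_ne_zero hn0⟩⟩
  set C := commutant ρ with hC
  -- nonzero elements are invertible
  have hunit : ∀ x : C, x ≠ 0 → IsUnit x := by
    intro x hx
    have hinj : Function.Injective fun y : C => x * y := by
      intro y z hyz
      have hxyz : x * (y - z) = 0 := by rw [mul_sub]; exact sub_eq_zero.2 hyz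
      rw [← sub_eq_zero]
      apply Subtype.ext
      have hker : ∀ v, (x : Matrix (Fin n) (Fin n) (ZMod 2)) *ᵥ v = 0 → v = 0 := by
        intro v hv
        rcases hirr (LinearMap.ker (Matrix.mulVecLin (x : Matrix (Fin n) (Fin n) (ZMod 2))))
          (fun g u hu => by
            rw [LinearMap.mem_ker, Matrix.mulVecLin_apply] at hu ⊢
            rw [Matrix.mulVec_mulVec, ← (mem_commutant ρ).1 x.2 g, ← Matrix.mulVec_mulVec, hu,
              Matrix.mulVec_zero]) with h | h
        · have : v ∈ (⊥ : Submodule (ZMod 2) (Fin n → ZMod 2)) := h ▸ LinearMap.mem_ker.2 hv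
          simpa using this
        · exact absurd (Subtype.ext (Matrix.ext_of_mulVec_single fun i => by
            rw [ZeroMemClass.coe_zero, Matrix.zero_mulVec]
            exact LinearMap.mem_ker.1 (h ▸ Submodule.mem_top :
              Pi.single i 1 ∈ LinearMap.ker (Matrix.mulVecLin (x : Matrix (Fin n) (Fin n) (ZMod 2)))))) hx
      show ((y - z : C) : Matrix (Fin n) (Fin n) (ZMod 2)) = ((0 : C) : Matrix _ _ _)
      refine Matrix.ext_of_mulVec_single fun i => ?_
      rw [ZeroMemClass.coe_zero, Matrix.zero_mulVec]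
      refine hker _ ?_
      rw [Matrix.mulVec_mulVec, ← MulMemClass.coe_mul, hxyz, ZeroMemClass.coe_zero,
        Matrix.zero_mulVec]
    obtain ⟨y, hy⟩ := Finite.surjective_of_injective hinj 1
    refine ⟨⟨x, y, hy, hinj ?_⟩, rfl⟩
    show x * (y * x) = x * 1
    rw [← mul_assoc, show x * y = 1 from hy, one_mul, mul_one]
  haveI : Nontrivial C := ⟨⟨0, 1, fun h => zero_ne_one (congrArg Subtype.val h)⟩⟩
  have hcard : Nat.card Cˣ = 2 ^ Module.finrank (ZMod 2) C - 1 := by
    have e : Cˣ ≃ {x : C // x ≠ 0} :=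
      Equiv.ofBijective (fun u => ⟨u, u.ne_zero⟩)
        ⟨fun a b h => Units.ext (congrArg Subtype.val h), fun x => by
          obtain ⟨u, hu⟩ := hunit x x.2
          exact ⟨u, Subtype.ext hu⟩⟩
    haveI := Fintype.ofFinite C
    rw [Nat.card_congr e, Nat.card_eq_fintype_card, Fintype.card_subtype_compl,
      Fintype.card_subtype_eq, Module.card_eq_pow_finrank (K := ZMod 2), ZMod.card]
  have h3 : 3 ∣ Nat.card Cˣ := by
    obtain ⟨k, hk⟩ := even_finrank_commutant ρ hodd hn
    rw [hcard, hC, hk, ← two_mul, pow_mul]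
    refine (Nat.modEq_iff_dvd' (Nat.one_le_pow _ _ (by norm_num))).1 ?_
    exact ((Nat.ModEq.pow k (show 2 ^ 2 ≡ 1 [MOD 3] by decide)).trans (by rw [one_pow])).symm
  haveI : Fact (Nat.Prime 3) := ⟨Nat.prime_three⟩
  obtain ⟨u, hu⟩ := exists_prime_orderOf_dvd_card' (G := Cˣ) 3 h3
  have hu1 : (u : C) - 1 ≠ 0 := sub_ne_zero.2 fun h => by
    rw [show u = 1 from Units.ext h, orderOf_one] at hu
    omega
  have hu3 : (u : C) ^ 3 = 1 := by rw [← Units.val_pow_eq_pow_val, ← hu, pow_orderOf_eq_one, Units.val_one]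
  have hzero : ((u : C) - 1) * ((u : C) * u + u + 1) = 0 := by
    rw [← sub_eq_zero.2 hu3]
    simp only [sub_mul, one_mul, mul_add, mul_one, pow_succ, pow_zero, mul_assoc]
    abel
  obtain ⟨w, hw⟩ := hunit _ hu1
  rw [← hw, Units.mul_right_eq_zero] at hzero
  refine ⟨((u : C) : Matrix (Fin n) (Fin n) (ZMod 2)), fun g => (mem_commutant ρ).1 (u : C).2 g, ?_⟩
  have := congrArg Subtype.val hzero
  simpa using this

end Cfsg.Agent.Lib.OddLinear
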