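import Mathlib
import Cfsg.Agent.S0899
import Cfsg.Agent.S1160
import Cfsg.Agent.Lib.DefectOne.SmallDegreeOdd
import Cfsg.Agent.Lib.Block.Exist
import Cfsg.Agent.Lib.Zsigmondy
import Cfsg.Agent.Lib.OddLinear.Complex
import Cfsg.Agent.Lib.OddLinear.Even

/-!
# Transitive linear groups of odd order are solvable, with cyclic semiregular Fitting subgroup

No use is made of the solvability of all groups of odd order: a primitive prime divisor `r` of
`2 ^ n - 1` exceeds twice the degree of the complex representations obtained by lifting, so the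
Sylow `r`-subgroup is normal.
-/

set_option autoImplicit false
set_option linter.unusedSectionVars false
set_option linter.style.haveILetI false

namespace Cfsg.Agent.Lib.OddLinear

open Cfsg Cfsg.Agent.Lib.Char

universe u v

section Complex

variable {G : Type u} [Group G] [Finite G]

/-- In a faithful complex representation of degree at most `(p - 1) / 2` of a group of odd order
every Sylow `p`-subgroup is normal. -/
theorem sylow_normal (hodd : Odd (Nat.card G)) {n : ℕ} (ρ : Representation ℂ G (Fin n → ℂ))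
    (hρ : Function.Injective ρ) (p : ℕ) [hp : Fact p.Prime] (hn : 2 * n + 1 ≤ p) (P : Sylow p G) :
    (P : Subgroup G).Normal := by
  have := hp.out.two_le
  refine S0899.result n ρ hρ p (Or.inr ⟨by omega, fun K hK Q => ?_⟩) P
  haveI : Fintype K := Fintype.ofFinite K
  by_cases hd : p ∣ Nat.card K
  · have hfac : (Nat.card K).factorization p = 1 := by
      refine le_antisymm ?_ (hp.out.factorization_pos_of_dvd Nat.card_pos.ne' hd)
      by_contra h
      exact hK ((hp.out.pow_dvd_iff_le_factorization Nat.card_pos.ne').2 (by omega))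
    obtain ⟨M, hM⟩ := Block.exists_isPModular hp.out
    have := hM.2.1.isPrime
    let σ : Representation ℂ K (Fin n → ℂ) := ρ.comp K.subtype
    have hdeg : charDegree σ.character = n := charDegree_eq_of_apply_one (by
      rw [Representation.char_one, Module.finrank_fin_fun])
    refine DefectOne.sylow_normal_of_degree_le_of_odd hM (Nat.card K) K Q le_rfl
      (hodd.of_dvd_nat (Subgroup.card_subgroup_dvd_card K))
      (by rw [Q.card_eq_multiplicity, hfac, pow_one]) σ.character (isCharacter_character σ)
      (fun g hg => ?_) (by rw [hdeg]; exact hn)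
    rw [Representation.char_one, Module.finrank_fin_fun] at hg
    have h1 := (character_eq_degree_iff σ g).1 (by rw [hg, Module.finrank_fin_fun])
    exact Subtype.ext (hρ (show ρ (g : G) = ρ 1 by rw [map_one]; exact h1))
  · have : (Q : Subgroup K) = ⊥ := by
      rw [← Subgroup.card_eq_one, Q.card_eq_multiplicity, Nat.factorization_eq_zero_of_not_dvd hd,
        pow_zero]
    rw [this]
    infer_instance

/-- A Sylow subgroup is normal modulo the kernel of a small representation. -/
theorem sup_ker_normal (hodd : Odd (Nat.card G)) {n : ℕ} (ρ : Representation ℂ G (Fin n → ℂ))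
    (p : ℕ) [hp : Fact p.Prime] (hn : 2 * n + 1 ≤ p) (P : Sylow p G) :
    ((P : Subgroup G) ⊔ ρ.toHomUnits.ker).Normal := by
  set f := ρ.toHomUnits.rangeRestrict
  have hf : Function.Surjective f := MonoidHom.rangeRestrict_surjective _
  let σ : Representation ℂ ρ.toHomUnits.range (Fin n → ℂ) :=
    (Units.coeHom _).comp ρ.toHomUnits.range.subtype
  have hσ : Function.Injective σ := fun a b h => Subtype.ext (Units.ext h)
  have hodd' : Odd (Nat.card ρ.toHomUnits.range) :=
    hodd.of_dvd_nat (Subgroup.card_range_dvd _)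
  haveI : Finite ρ.toHomUnits.range := Finite.of_surjective f hf
  have hN := sylow_normal hodd' σ hσ p hn (P.mapSurjective hf)
  rw [Sylow.coe_mapSurjective] at hN
  have h := hN.comap f
  rwa [Subgroup.comap_map_eq, MonoidHom.ker_rangeRestrict] at h

theorem sylow_normal_of_pair (hodd : Odd (Nat.card G)) {n : ℕ}
    (σ₁ σ₂ : Representation ℂ G (Fin n → ℂ)) (hσ : ∀ g, σ₁ g = 1 → σ₂ g = 1 → g = 1) (p : ℕ)
    [hp : Fact p.Prime] (hn : 2 * n + 1 ≤ p) (P : Sylow p G) : (P : Subgroup G).Normal := by
  haveI h1 := sup_ker_normal hodd σ₁ p hn P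
  haveI h2 := sup_ker_normal hodd σ₂ p hn P
  set K₁ := σ₁.toHomUnits.ker
  set K₂ := σ₂.toHomUnits.ker
  set N := ((P : Subgroup G) ⊔ K₁) ⊓ ((P : Subgroup G) ⊔ K₂)
  have hN : IsPGroup p N := by
    intro y
    have key : ∀ (K : Subgroup G) [K.Normal], (y : G) ∈ (P : Subgroup G) ⊔ K →
        ∃ k : ℕ, (y : G) ^ p ^ k ∈ K := by
      intro K _ hy
      obtain ⟨s, hs, c, hc, hsc⟩ := Subgroup.mem_sup_of_normal_right.1 hy
      obtain ⟨k, hk⟩ := P.2 ⟨s, hs⟩
      refine ⟨k, (QuotientGroup.eq_one_iff _).1 ?_⟩
      rw [← hsc, QuotientGroup.mk_pow, QuotientGroup.mk_mul, (QuotientGroup.eq_one_iff c).2 hc,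
        mul_one, ← QuotientGroup.mk_pow, show s ^ p ^ k = 1 from congrArg Subtype.val hk,
        QuotientGroup.mk_one]
    obtain ⟨a, ha⟩ := key K₁ y.2.1
    obtain ⟨b, hb⟩ := key K₂ y.2.2
    refine ⟨a + b, Subtype.ext ?_⟩
    have h1 : (y : G) ^ p ^ (a + b) ∈ K₁ := by rw [pow_add, pow_mul]; exact K₁.pow_mem ha _
    have h2 : (y : G) ^ p ^ (a + b) ∈ K₂ := by rw [pow_add, mul_comm, pow_mul]; exact K₂.pow_mem hb _
    exact hσ _ (congrArg Units.val (MonoidHom.mem_ker.1 h1))
      (congrArg Units.val (MonoidHom.mem_ker.1 h2))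
  have e : N = (P : Subgroup G) := P.3 hN (le_inf le_sup_left le_sup_left)
  rw [← e]
  infer_instance

end Complex

theorem card_fixed_modEq {U : Type*} [Finite U] {r : ℕ} [Fact r.Prime] (f : Function.End U)
    (hf : f ^ r = 1) (z : U) (hz : ∀ u, f u = u ↔ u = z) : Nat.card U ≡ 1 [MOD r] := by
  classical
  haveI := Fintype.ofFinite U
  have h := Equiv.Perm.card_fixedPoints_modEq (p := r) (n := 1) (f := f) (by rwa [pow_one])
  simp only [← Nat.card_eq_fintype_card] at h
  refine h.trans (by
    have e : Function.fixedPoints f = {z} := Set.ext fun u => hz u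
    rw [e]
    simp [Nat.ModEq])

variable {D : Type u} {E : Type v} [Group D] [Finite D] [AddCommGroup E] [Finite E] [Nontrivial E]
  [DistribMulAction D E] [FaithfulSMul D E]

theorem stabilizer_card_eq_of_normal {N : Subgroup D} [hN : N.Normal]
    (htrans : ∀ a b : E, a ≠ 0 → b ≠ 0 → ∃ d : D, d • a = b) {a b : E} (ha : a ≠ 0) (hb : b ≠ 0) :
    Nat.card (MulAction.stabilizer N a) = Nat.card (MulAction.stabilizer N b) := by
  obtain ⟨d, rfl⟩ := htrans a b ha hb
  refine Nat.card_eq_of_bijective (fun s => ⟨⟨d * (s : N) * d⁻¹, hN.conj_mem _ (s : N).2 d⟩, ?_⟩)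
    ⟨fun s s' h => ?_, fun s => ⟨⟨⟨d⁻¹ * (s : N) * d⁻¹⁻¹, hN.conj_mem _ (s : N).2 d⁻¹⟩, ?_⟩, ?_⟩⟩
  · have hs : ((s : N) : D) • a = a := s.2
    show (d * (s : N) * d⁻¹ : D) • d • a = d • a
    rw [mul_smul, mul_smul, inv_smul_smul, hs]
  · have := congrArg (fun z : MulAction.stabilizer N (d • a) => ((z : N) : D)) h
    exact Subtype.ext (Subtype.ext (mul_left_cancel (mul_right_cancel this)))
  · have hs : ((s : N) : D) • d • a = d • a := s.2
    show (d⁻¹ * (s : N) * d⁻¹⁻¹ : D) • a = a
    rw [inv_inv, mul_smul, mul_smul, hs, inv_smul_smul]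
  · exact Subtype.ext (Subtype.ext (by simp [mul_assoc]))

theorem eq_two (hodd : Odd (Nat.card D)) {q : ℕ} (hq : q.Prime) (hE : ∀ e : E, q • e = 0)
    (htrans : ∀ a b : E, a ≠ 0 → b ≠ 0 → ∃ d : D, d • a = b) :
    q = 2 ∧ Nat.card E - 1 ∣ Nat.card D := by
  classical
  obtain ⟨a, ha⟩ := exists_ne (0 : E)
  have horb : MulAction.orbit D a = {(0 : E)}ᶜ := by
    ext b
    simp only [Set.mem_compl_iff, Set.mem_singleton_iff, MulAction.mem_orbit_iff]
    refine ⟨?_, fun hb => htrans a b ha hb⟩
    rintro ⟨d, rfl⟩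
    exact (smul_ne_zero_iff_ne d).2 ha
  have hdvd : Nat.card E - 1 ∣ Nat.card D := by
    have h1 : (MulAction.stabilizer D a).index = Nat.card E - 1 := by
      rw [MulAction.index_stabilizer, horb, Set.ncard_compl, Set.ncard_singleton]
    exact h1 ▸ (MulAction.stabilizer D a).index_dvd_card
  refine ⟨hq.eq_two_or_odd'.resolve_right fun hqo => ?_, hdvd⟩
  haveI : Fact q.Prime := ⟨hq⟩
  haveI : Module (ZMod q) E := AddCommGroup.zmodModule hE
  haveI : Module.Finite (ZMod q) E := Module.Finite.of_finite
  have hcard : Odd (Nat.card E) := by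
    rw [Module.natCard_eq_pow_finrank (K := ZMod q), Nat.card_zmod]
    exact hqo.pow
  have hpos : 1 ≤ Nat.card E := Nat.card_pos
  obtain ⟨k, hk⟩ := hcard
  have : 2 ∣ Nat.card D := dvd_trans ⟨k, by omega⟩ hdvd
  exact Nat.not_even_iff_odd.2 hodd (even_iff_two_dvd.2 this)

theorem isSolvable_of_transitive (hodd : Odd (Nat.card D)) (hE : ∀ e : E, 2 • e = 0)
    (htrans : ∀ a b : E, a ≠ 0 → b ≠ 0 → ∃ d : D, d • a = b) : Group.IsSolvable D := by
  classical
  obtain ⟨-, hdvd⟩ := eq_two hodd Nat.prime_two hE htrans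
  haveI : Module (ZMod 2) E := AddCommGroup.zmodModule hE
  haveI : Module.Finite (ZMod 2) E := Module.Finite.of_finite
  set n := Module.finrank (ZMod 2) E
  have hcard : Nat.card E = 2 ^ n := by
    rw [Module.natCard_eq_pow_finrank (K := ZMod 2), Nat.card_zmod]
  have hn0 : 0 < n := Module.finrank_pos
  rcases Nat.lt_or_ge n 2 with h | hn2
  · -- one nonzero vector only
    have hs : Subsingleton D := ⟨fun d d' => FaithfulSMul.eq_of_smul_eq_smul fun e : E => by
      rcases eq_or_ne e 0 with rfl | he
      · rw [smul_zero, smul_zero]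
      · have h2 : Nat.card E = 2 := by rw [hcard, show n = 1 by omega, pow_one]
        obtain ⟨x, y, hxy, huniv⟩ := Nat.card_eq_two_iff.1 h2
        have hm : ∀ z : E, z = x ∨ z = y := fun z => by
          have : z ∈ ({x, y} : Set E) := huniv.symm ▸ Set.mem_univ z
          simpa using this
        have key : ∀ z : E, z ≠ 0 → z = e := fun z hz => by
          rcases hm z with rfl | rfl <;> rcases hm e with rfl | rfl <;> rcases hm 0 with h0 | h0 <;>
            first | rfl | exact absurd h0.symm hz | exact absurd h0.symm he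
        rw [key _ ((smul_ne_zero_iff_ne d).2 he), key _ ((smul_ne_zero_iff_ne d').2 he)]⟩
    infer_instance
  -- matrices
  let act : D →* Module.End (ZMod 2) E :=
    { toFun := fun d => (DistribMulAction.toAddMonoidHom E d).toZModLinearMap 2
      map_one' := LinearMap.ext fun e => one_smul D e
      map_mul' := fun a b => LinearMap.ext fun e => mul_smul a b e }
  have hact : ∀ d e, act d e = d • e := fun d e => rfl
  let bs := Module.finBasis (ZMod 2) E
  let L := LinearMap.toMatrixAlgEquiv bs
  let ρ : D →* Matrix (Fin n) (Fin n) (ZMod 2) := L.toRingEquiv.toRingHom.toMonoidHom.comp act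
  have hρ : Function.Injective ρ := fun a b h =>
    FaithfulSMul.eq_of_smul_eq_smul fun e : E => LinearMap.congr_fun (L.injective h) e
  -- the data: a prime `r`, the bound, and `W`
  obtain ⟨r, hr, hrn, hrprim, hrb, W, hWc, hW2, hW6⟩ : ∃ r : ℕ, r.Prime ∧ r ∣ 2 ^ n - 1 ∧
      (∀ i, 0 < i → i < n → r ∣ 2 ^ i - 1 → n = 6 ∧ i = 3) ∧
      (if Even n then n + 1 ≤ r else 2 * n + 1 ≤ r) ∧
      ∃ W : Module.End (ZMod 2) E, (∀ d, Commute (act d) W) ∧ (Even n → W * W + W + 1 = 0) ∧
        (n = 6 → Even n) := by
    obtain ⟨W, hWc, hW2⟩ : ∃ W : Module.End (ZMod 2) E,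
        (∀ d, Commute (act d) W) ∧ (Even n → W * W + W + 1 = 0) := by
      by_cases hev : Even n
      · obtain ⟨Wm, hc, h2⟩ := exists_omega ρ hodd hev hn0.ne' (fun U hU => by
          by_cases hbot : U = ⊥
          · exact Or.inl hbot
          obtain ⟨u, hu, hu0⟩ := Submodule.exists_mem_ne_zero_of_ne_bot hbot
          refine Or.inr (Submodule.eq_top_iff'.2 fun w => ?_)
          rcases eq_or_ne w 0 with rfl | hw
          · exact U.zero_mem
          obtain ⟨d, hd⟩ := htrans (bs.equivFun.symm u) (bs.equivFun.symm w)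
            (fun h => hu0 ((LinearEquiv.map_eq_zero_iff _).1 h))
            (fun h => hw ((LinearEquiv.map_eq_zero_iff _).1 h))
          have := hU d u hu
          have e : Matrix.mulVec (ρ d) u = w := by
            have h3 := LinearMap.toMatrix_mulVec_repr bs bs (act d) (bs.equivFun.symm u)
            rw [hact, hd] at h3
            rw [show ⇑(bs.repr (bs.equivFun.symm u)) = u from bs.equivFun.apply_symm_apply u,
              show ⇑(bs.repr (bs.equivFun.symm w)) = w from bs.equivFun.apply_symm_apply w] at h3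
            exact h3
          rwa [e] at this)
        refine ⟨L.symm Wm, fun d => ?_, fun _ => ?_⟩
        · apply L.injective
          rw [map_mul, map_mul, AlgEquiv.apply_symm_apply]
          exact hc d
        · apply L.injective
          rw [map_add, map_add, map_mul, map_one, map_zero, AlgEquiv.apply_symm_apply]
          exact h2
      · exact ⟨1, fun d => Commute.one_right _, fun h => absurd h hev⟩
    by_cases h6 : n = 6
    · refine ⟨7, by norm_num, by rw [h6]; norm_num, fun i h1 h2 h3 => ⟨h6, ?_⟩,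
        by rw [if_pos (by rw [h6]; decide)]; omega, W, hWc, hW2, fun h => by rw [h]; decide⟩
      rw [h6] at h2
      interval_cases i <;> simp_all
    · obtain ⟨r, hr, hrn, hk⟩ := Zsigmondy.exists_primitive_prime 2 n one_lt_two (by omega)
        (fun h => h6 h.2) (by
          rintro ⟨-, m, hm⟩
          rcases Nat.eq_zero_or_pos m with rfl | hm0
          · simp at hm
          · have : 2 ∣ 2 ^ m := dvd_pow_self 2 hm0.ne'
            omega)
      haveI : Fact r.Prime := ⟨hr⟩
      have hr2 : r ≠ 2 := fun h => by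
        subst h
        have h1 : 2 ∣ 2 ^ n := dvd_pow_self 2 hn0.ne'
        have h2 : 1 ≤ 2 ^ n := Nat.one_le_two_pow
        omega
      have h2z : (2 : ZMod r) ≠ 0 := by
        intro h
        have : r ∣ 2 := by
          rw [← ZMod.natCast_eq_zero_iff]
          exact_mod_cast h
        exact hr2 ((Nat.prime_dvd_prime_iff_eq hr Nat.prime_two).1 this)
      have hiff : ∀ i, (2 : ZMod r) ^ i = 1 ↔ r ∣ 2 ^ i - 1 := fun i => by
        rw [← ZMod.natCast_eq_zero_iff, Nat.cast_sub Nat.one_le_two_pow, sub_eq_zero, Nat.cast_pow,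
          Nat.cast_one, Nat.cast_ofNat]
      have hord : orderOf (2 : ZMod r) = n := by
        rw [orderOf_eq_iff hn0]
        exact ⟨(hiff n).2 hrn, fun m hm hm0 h => hk m hm0 hm ((hiff m).1 h)⟩
      have hdv : n ∣ r - 1 := hord ▸ ZMod.orderOf_dvd_card_sub_one h2z
      refine ⟨r, hr, hrn, fun i h1 h2 h3 => absurd h3 (hk i h1 h2), ?_, W, hWc, hW2,
        fun h => absurd h h6⟩
      have hro := hr.eq_two_or_odd'.resolve_left hr2
      have hr1 : 0 < r - 1 := by have := hr.two_le; omega
      split_ifs with hev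
      · have := Nat.le_of_dvd hr1 hdv
        omega
      · have h2r : 2 ∣ r - 1 := by
          obtain ⟨k, hk⟩ := hro
          exact ⟨k, by omega⟩
        have hcop : Nat.Coprime 2 n := (Nat.not_even_iff_odd.1 hev).coprime_two_left
        have := Nat.le_of_dvd hr1 (hcop.mul_dvd_of_dvd_of_dvd h2r hdv)
        omega
  haveI : Fact r.Prime := ⟨hr⟩
  have hr2 : r ≠ 2 := by
    intro h
    split_ifs at hrb <;> omega
  -- the Sylow subgroup is normal
  obtain ⟨R⟩ := (inferInstance : Nonempty (Sylow r D))
  haveI hRn : (R : Subgroup D).Normal := by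
    by_cases hev : Even n
    · rw [if_pos hev] at hrb
      have hW3 : L W * L W + L W + 1 = 0 := by
        rw [← map_mul, ← map_one L, ← map_add, ← map_add, hW2 hev, map_zero]
      obtain ⟨m, hm, σ₁, σ₂, hσ⟩ := exists_two_halves hodd ρ hρ (W := L W) (fun d => by
        show L (act d) * L W = L W * L (act d)
        rw [← map_mul, ← map_mul, (hWc d).eq]) hW3
      exact sylow_normal_of_pair hodd σ₁ σ₂ hσ r (by omega) R
    · rw [if_neg hev] at hrb
      obtain ⟨σ, hσ⟩ := exists_complex hodd ρ hρ
      exact sylow_normal hodd σ hσ r hrb R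
  haveI : FaithfulSMul (R : Subgroup D) E :=
    ⟨fun {a b} h => Subtype.ext (FaithfulSMul.eq_of_smul_eq_smul (M := D) fun e : E => h e)⟩
  obtain ⟨hcyc, hfpf⟩ := S1160.result (P := (R : Subgroup D)) (p := r) hr2 R.2 Nat.prime_two hE
    fun a b ha hb => stabilizer_card_eq_of_normal htrans ha hb
  have hrD : r ∣ Nat.card D := hrn.trans (hcard ▸ hdvd)
  have hrR : r ∣ Nat.card (R : Subgroup D) := by
    obtain ⟨k, hk⟩ := IsPGroup.iff_card.1 R.2
    rw [hk]
    refine dvd_pow_self r ?_
    rintro rfl
    rw [pow_zero, R.card_eq_multiplicity, pow_eq_one_iff_right hr.one_lt.ne'] at hk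
    exact (hr.factorization_pos_of_dvd Nat.card_pos.ne' hrD).ne' hk
  obtain ⟨x, hx⟩ := exists_prime_orderOf_dvd_card' (G := (R : Subgroup D)) r hrR
  have hxr' : x ^ r = 1 := by
    have := pow_orderOf_eq_one x
    rwa [hx] at this
  have hxr : (x : D) ^ r = 1 := by
    have := congrArg Subtype.val hxr'
    simpa using this
  set X := Subgroup.zpowers (x : D)
  have hxo : orderOf (x : D) = r := by rw [Subgroup.orderOf_coe, hx]
  haveI hXn : X.Normal := by
    haveI := Fintype.ofFinite (R : Subgroup D)
    haveI := hcyc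
    refine ⟨fun y hy d => ?_⟩
    obtain ⟨i, rfl⟩ := hy
    show d * (x : D) ^ i * d⁻¹ ∈ X
    rw [← conj_zpow]
    refine Subgroup.zpow_mem _ ?_ _
    have hmem : d * (x : D) * d⁻¹ ∈ (R : Subgroup D) := hRn.conj_mem _ x.2 d
    let S := Finset.univ.filter fun z : (R : Subgroup D) => z ^ r = 1
    have hS : S.card ≤ r := IsCyclic.card_pow_eq_one_le hr.pos
    let T := (Subgroup.zpowers x : Set (R : Subgroup D)).toFinset
    have hTS : T = S := by
      refine Finset.eq_of_subset_of_card_le (fun z hz => ?_) ?_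
      · rw [Set.mem_toFinset, SetLike.mem_coe] at hz
        obtain ⟨k, rfl⟩ := hz
        refine Finset.mem_filter.2 ⟨Finset.mem_univ _, ?_⟩
        show (x ^ k) ^ r = 1
        rw [← zpow_natCast, ← zpow_mul, mul_comm, zpow_mul, zpow_natCast, hxr', one_zpow]
      · refine hS.trans (le_of_eq ?_)
        rw [← Set.ncard_eq_toFinset_card', ← Nat.card_coe_set_eq]
        exact hx.symm.trans (Nat.card_zpowers x).symm
    have hz : (⟨_, hmem⟩ : (R : Subgroup D)) ∈ S := Finset.mem_filter.2 ⟨Finset.mem_univ _, Subtype.ext (by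
      show (d * (x : D) * d⁻¹) ^ r = 1
      rw [conj_pow, hxr, mul_one, mul_inv_cancel])⟩
    rw [← hTS, Set.mem_toFinset, SetLike.mem_coe] at hz
    obtain ⟨k, hk⟩ := hz
    exact ⟨k, congrArg Subtype.val hk⟩
  -- no invariant subspace
  set SS : Set (Module.End (ZMod 2) E) := {act (x : D), W} with hSS
  have hirr : ∀ U : Submodule (ZMod 2) E, (∀ f ∈ SS, ∀ u ∈ U, f u ∈ U) → U = ⊥ ∨ U = ⊤ := by
    intro U hU
    set i := Module.finrank (ZMod 2) U
    have hUc : Nat.card U = 2 ^ i := by
      rw [Module.natCard_eq_pow_finrank (K := ZMod 2), Nat.card_zmod]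
    have hfx : ∀ u ∈ U, act (x : D) u ∈ U := hU _ (by simp [hSS])
    let f : Function.End U := fun u => ⟨act (x : D) u, hfx u u.2⟩
    have hfk : ∀ (k : ℕ) (u : U), (((f ^ k) u : U) : E) = ((x : D) ^ k) • (u : E) := fun k => by
      induction k with
      | zero => intro u; rw [pow_zero, pow_zero, one_smul]; rfl
      | succ k ih =>
        intro u
        rw [pow_succ', pow_succ', mul_smul, ← ih]
        rfl
    have h1 : Nat.card U ≡ 1 [MOD r] := card_fixed_modEq f (funext fun u => Subtype.ext (by
        rw [hfk, hxr, one_smul]; rfl)) 0 fun u => by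
      constructor
      · intro h
        have h' : (x : D) • (u : E) = u := congrArg Subtype.val h
        refine Subtype.ext (hfpf x (fun hx1 => ?_) u h')
        rw [hx1, orderOf_one] at hx
        exact hr.one_lt.ne hx
      · rintro rfl
        exact Subtype.ext (smul_zero _)
    have hi : i ≤ n := Submodule.finrank_le U
    rcases Nat.eq_zero_or_pos i with h0 | h0
    · exact Or.inl (Submodule.finrank_eq_zero.1 h0)
    rcases eq_or_lt_of_le hi with heq | hlt
    · exact Or.inr (Submodule.eq_top_of_finrank_eq heq)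
    exfalso
    rw [hUc] at h1
    obtain ⟨h6, h3⟩ := hrprim i h0 hlt ((Nat.modEq_iff_dvd' Nat.one_le_two_pow).1 h1.symm)
    have hWu := hW2 (hW6 h6)
    have hfW : ∀ u ∈ U, W u ∈ U := hU _ (by simp [hSS])
    let g : Function.End U := fun u => ⟨W u, hfW u u.2⟩
    have hW3 : W * W * W = 1 := by
      have e : (W - 1) * (W * W + W + 1) = W * W * W - 1 := by
        simp only [sub_mul, one_mul, mul_add, mul_one, mul_assoc]
        abel
      rw [hWu, mul_zero, eq_comm, sub_eq_zero] at e
      exact e
    have h2 : Nat.card U ≡ 1 [MOD 3] := by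
      haveI : Fact (Nat.Prime 3) := ⟨Nat.prime_three⟩
      refine card_fixed_modEq g (funext fun u => Subtype.ext ?_) 0 fun u => ?_
      · have := LinearMap.congr_fun hW3 (u : E)
        exact this
      · constructor
        · intro h
          have h' : W (u : E) = u := congrArg Subtype.val h
          have := LinearMap.congr_fun hWu (u : E)
          simp only [LinearMap.add_apply, Module.End.mul_apply, Module.End.one_apply, h',
            LinearMap.zero_apply] at this
          rw [← two_nsmul, hE, zero_add] at this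
          exact Subtype.ext this
        · rintro rfl
          exact Subtype.ext (map_zero _)
    rw [hUc, h3] at h2
    exact absurd h2 (by decide)
  -- the centralizer is commutative
  let A := Subalgebra.centralizer (ZMod 2) SS
  haveI : Finite (Module.End (ZMod 2) E) :=
    Finite.of_injective (fun f : Module.End (ZMod 2) E => (f : E → E)) DFunLike.coe_injective
  haveI : NoZeroDivisors A := ⟨fun {a b} hab => by
    by_contra hne
    push Not at hne
    have hker : LinearMap.ker (a : Module.End (ZMod 2) E) = ⊥ := by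
      refine (hirr _ fun f hf u hu => ?_).resolve_right fun h => hne.1 (Subtype.ext
        (LinearMap.ker_eq_top.1 h))
      rw [LinearMap.mem_ker] at hu ⊢
      rw [← Module.End.mul_apply, ← (Subalgebra.mem_centralizer_iff _).1 a.2 f hf,
        Module.End.mul_apply, hu, map_zero]
    refine hne.2 (Subtype.ext (LinearMap.ext fun e => LinearMap.ker_eq_bot.1 hker ?_))
    have := LinearMap.congr_fun (congrArg Subtype.val hab) e
    rw [show ((0 : A) : Module.End (ZMod 2) E) e = 0 from rfl, map_zero]
    exact this⟩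
  haveI : Nontrivial A := ⟨⟨0, 1, fun h => by
    obtain ⟨e, he⟩ := exists_ne (0 : E)
    exact he (LinearMap.congr_fun (congrArg Subtype.val h) e).symm⟩⟩
  haveI : IsDomain A := NoZeroDivisors.to_isDomain A
  have hAcomm := (Finite.isDomain_to_isField A).mul_comm
  -- conclusion
  let φ : D →* MulAut X := MulAut.conjNormal
  haveI hsK : Group.IsSolvable φ.ker := by
    have hmem : ∀ c : φ.ker, act (c : D) ∈ A := by
      intro c
      rw [Subalgebra.mem_centralizer_iff]
      have hcx : (c : D) * x = x * c := by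
        have := congrArg Subtype.val (MulEquiv.congr_fun (MonoidHom.mem_ker.1 c.2)
          (⟨x, Subgroup.mem_zpowers _⟩ : X))
        exact mul_inv_eq_iff_eq_mul.1 this
      intro f hf
      rcases hf with rfl | hf
      · rw [← map_mul, ← map_mul, hcx]
      · rw [Set.mem_singleton_iff] at hf
        rw [hf]
        exact (hWc _).symm.eq
    refine Group.isSolvable_of_comm fun a b => ?_
    apply Subtype.ext
    apply hρ
    show L (act ((a : D) * b)) = L (act ((b : D) * a))
    rw [map_mul act, map_mul act, show act (a : D) * act (b : D) = act (b : D) * act (a : D) from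
      congrArg Subtype.val (hAcomm ⟨_, hmem a⟩ ⟨_, hmem b⟩)]
  haveI : Group.IsSolvable (MulAut X) := by
    refine Group.isSolvable_of_comm fun a b => ?_
    refine MulEquiv.ext fun y => ?_
    haveI : IsCyclic X := inferInstance
    obtain ⟨i, hi⟩ := MonoidHom.map_cyclic a.toMonoidHom
    obtain ⟨j, hj⟩ := MonoidHom.map_cyclic b.toMonoidHom
    show a (b y) = b (a y)
    have ha : ∀ z, a z = z ^ i := hi
    have hb : ∀ z, b z = z ^ j := hj
    rw [ha, hb, hb, ha, ← zpow_mul, ← zpow_mul, mul_comm]
  exact solvable_of_ker_le_range φ.ker.subtype φ (by simp)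

end Cfsg.Agent.Lib.OddLinear
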